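import Mathlib
import Cfsg.Agent.H465.LTwo
import Cfsg.Agent.H585.Good
import Cfsg.Agent.S2602
import Cfsg.Agent.Lib.Zsigmondy

/-!
# Good elements of `PSL_2(q)` (helper577, for S4384), `q ≠ 8`

* `hasGood` : `HasGood (PSL_2(q))`, `q ≥ 4`, `q ≠ 8`.
-/

set_option autoImplicit false

namespace Cfsg.Agent.H577.GoodPSLTwo

open Subgroup Matrix Cfsg.Agent.H465.SU Cfsg.Agent.H465.LTwo Cfsg.Agent.H585.Good

universe u

variable {F : Type u} [Field F] [Fintype F]

/-- the order of the outer automorphism group -/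
theorem card_out {p f : ℕ} [Fact p.Prime] (hf : 1 ≤ f) (hF : Fintype.card F = p ^ f) (h4 : 4 ≤ p ^ f) :
    Nat.card (Cfsg.Out (ProjectiveSpecialLinearGroup (Fin 2) F)) = Nat.gcd 2 (p ^ f - 1) * f := by
  obtain ⟨φ, hφ, -, hker⟩ := Cfsg.Agent.S2602.result (F := F) (p := p) (f := f) hf hF h4
  have h1 := Subgroup.card_mul_index φ.ker
  rw [Subgroup.index_ker, MonoidHom.range_eq_top.2 hφ, Subgroup.card_top, hker,
    Nat.card_congr Multiplicative.toAdd, Nat.card_zmod] at h1
  exact h1.symm

theorem innAt {p f : ℕ} [Fact p.Prime] (hf : 1 ≤ f) (hF : Fintype.card F = p ^ f) (h4 : 4 ≤ p ^ f) {r : ℕ}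
    (hr : r.Prime) (h2 : r ≠ 2) (hrf : f < r) : InnAt (ProjectiveSpecialLinearGroup (Fin 2) F) r := by
  refine InnAt.of_out hr ?_
  rw [card_out hf hF h4, hr.dvd_mul]
  rintro (h | h)
  · exact h2 ((Nat.prime_dvd_prime_iff_eq hr Nat.prime_two).1 (h.trans (Nat.gcd_dvd_left _ _)))
  · exact absurd (Nat.le_of_dvd (by omega) h) (by omega)

/-- `π : SL_2 → PSL_2` preserves the order of the `r`-elements, `r` odd -/
theorem orderOf_mk {r a : ℕ} (hr : r.Prime) (h2 : r ≠ 2) {y : SpecialLinearGroup (Fin 2) F} (hy : orderOf y = r ^ a) :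
    orderOf (QuotientGroup.mk' (center (SpecialLinearGroup (Fin 2) F)) y) = r ^ a := by
  refine Nat.dvd_antisymm (hy ▸ orderOf_map_dvd _ _) ?_
  rw [← hy, orderOf_dvd_iff_pow_eq_one]
  set n := orderOf (QuotientGroup.mk' (center (SpecialLinearGroup (Fin 2) F)) y) with hn
  have h1 : y ^ n ∈ center (SpecialLinearGroup (Fin 2) F) := by
    rw [← QuotientGroup.eq_one_iff, ← QuotientGroup.mk'_apply, map_pow, hn, pow_orderOf_eq_one]
  rw [← orderOf_eq_one_iff]
  have h3 : orderOf (y ^ n) ∣ r ^ a := hy ▸ orderOf_pow_dvd _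
  obtain ⟨j, -, hj⟩ := (Nat.dvd_prime_pow hr).1 h3
  rcases Nat.eq_zero_or_pos j with h0 | h0
  · rw [hj, h0, pow_zero]
  · exfalso
    apply not_dvd_center (F := F) hr h2
    have h4 : orderOf (⟨y ^ n, h1⟩ : center (SpecialLinearGroup (Fin 2) F)) ∣
        Nat.card (center (SpecialLinearGroup (Fin 2) F)) := orderOf_dvd_natCard _
    rw [← Subgroup.orderOf_coe] at h4
    have h5 : orderOf (y ^ n) ∣ Nat.card (center (SpecialLinearGroup (Fin 2) F)) := h4
    rw [hj] at h5
    exact (dvd_pow_self r (by omega)).trans h5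

theorem card_psl_dvd : Nat.card (ProjectiveSpecialLinearGroup (Fin 2) F) ∣
    Fintype.card F * (Fintype.card F ^ 2 - 1) := by
  rw [← ClassicalGeometry.PSL2Basic.card_SL2]
  exact Subgroup.card_quotient_dvd_card _

/-- `q = p ≥ 5` a prime: the elements of order `p` -/
theorem hasGood_prime {p : ℕ} [Fact p.Prime] (hF : Fintype.card F = p) (h5 : 5 ≤ p)
    [IsSimpleGroup (ProjectiveSpecialLinearGroup (Fin 2) F)]
    (hK : ¬ IsMulCommutative (ProjectiveSpecialLinearGroup (Fin 2) F)) :
    HasGood (ProjectiveSpecialLinearGroup (Fin 2) F) := by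
  have hp : p.Prime := Fact.out
  have hcp : CharP F p := by
    obtain ⟨r, hchar⟩ := CharP.exists F
    have hr : r.Prime := (CharP.char_is_prime_or_zero F r).resolve_right (CharP.char_ne_zero_of_finite F r)
    obtain ⟨n, -, hn⟩ := FiniteField.card F r
    rw [hF] at hn
    have h1 : r ∣ p := by rw [hn]; exact dvd_pow_self r n.ne_zero
    rwa [← (Nat.prime_dvd_prime_iff_eq hr hp).1 h1]
  -- `p ∥ |PSL|`
  have h1 : p ∣ Nat.card (SpecialLinearGroup (Fin 2) F) := by
    rw [ClassicalGeometry.PSL2Basic.card_SL2, hF]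
    exact dvd_mul_right _ _
  have hd : p ∣ Nat.card (ProjectiveSpecialLinearGroup (Fin 2) F) := by
    have h2 := card_eq_card_quotient_mul_card_subgroup (center (SpecialLinearGroup (Fin 2) F))
    rw [h2] at h1
    rcases (hp.dvd_mul).1 h1 with h3 | h3
    · exact h3
    · exact absurd h3 (not_dvd_center hp (by omega))
  have hsq : ¬ p ^ 2 ∣ Nat.card (ProjectiveSpecialLinearGroup (Fin 2) F) := by
    intro h
    have h2 := h.trans card_psl_dvd
    rw [hF, pow_two] at h2
    have h3 := Nat.dvd_of_mul_dvd_mul_left hp.pos h2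
    have h4 : p ∣ p ^ 2 := dvd_pow_self p two_ne_zero
    have h6 : 1 ≤ p ^ 2 := Nat.one_le_pow _ _ hp.pos
    have h7 : p ∣ p ^ 2 - (p * p - 1) := Nat.dvd_sub h4 h3
    have h8 : p ^ 2 - (p * p - 1) = 1 := by
      rw [pow_two] at h6 ⊢
      omega
    rw [h8] at h7
    exact hp.one_lt.ne' (Nat.dvd_one.1 h7)
  obtain ⟨y, hy⟩ := exists_prime_orderOf_dvd_card' p hd
  have hsu : SUel p y := by
    refine ⟨fun h => ?_, ⟨1, by rw [hy, pow_one]⟩, fun M hM hyM A B hA hB hAc hBc => ?_⟩
    · rw [h, orderOf_one] at hy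
      exact hp.one_lt.ne hy
    · obtain ⟨R, hR1, hRM, hRp, hRn⟩ := exists_normal_of_linear (F := F) (r := p)
        (SpecialLinearGroup.toLin' (n := Fin 2) (R := F))
        SpecialLinearGroup.toLin'_injective hp (by
          rw [Module.finrank_fintype_fun_eq_card, Fintype.card_fin]
          omega) (by omega)
        (QuotientGroup.mk' (center (SpecialLinearGroup (Fin 2) F))) (QuotientGroup.mk'_surjective _)
        (by rw [QuotientGroup.ker_mk']) (by
          rw [QuotientGroup.ker_mk']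
          exact not_dvd_center hp (by omega)) hy hM hyM
      -- a `p`-subgroup of order `p` is equal to `R`
      have hRc : Nat.card R = p := by
        obtain ⟨k, hk⟩ := IsPGroup.iff_card.1 hRp
        have h2 : p ^ k ∣ Nat.card (ProjectiveSpecialLinearGroup (Fin 2) F) := hk ▸ Subgroup.card_subgroup_dvd_card R
        have hk2 : k < 2 := by
          by_contra hcon
          exact hsq ((pow_dvd_pow p (by omega)).trans h2)
        have hk0 : k ≠ 0 := by
          rintro rfl
          rw [pow_zero] at hk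
          exact hR1 (Subgroup.card_eq_one.1 hk)
        rw [hk, (by omega : k = 1), pow_one]
      have key : ∀ C : Subgroup (ProjectiveSpecialLinearGroup (Fin 2) F), C ≤ M → Nat.card C = p → C = R := by
        intro C hCM hCc
        have hnorm : C ≤ normalizer (R : Set (ProjectiveSpecialLinearGroup (Fin 2) F)) := by
          intro c hc
          rw [mem_normalizer_iff_map_conj_eq]
          refine eq_of_le_of_card_ge ?_ (le_of_eq (card_map_of_injective (MulAut.conj c).injective).symm)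
          rintro _ ⟨v, hv, rfl⟩
          exact hRn c (hCM hc) v hv
        have hCp : IsPGroup p C := IsPGroup.of_card (n := 1) (by rw [hCc, pow_one])
        have hsup : IsPGroup p (C ⊔ R : Subgroup (ProjectiveSpecialLinearGroup (Fin 2) F)) :=
          IsPGroup.to_sup_of_normal_right' hCp hRp hnorm
        obtain ⟨k, hk⟩ := IsPGroup.iff_card.1 hsup
        have h2 : p ^ k ∣ Nat.card (ProjectiveSpecialLinearGroup (Fin 2) F) := hk ▸ Subgroup.card_subgroup_dvd_card _
        have hk2 : k < 2 := by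
          by_contra hcon
          exact hsq ((pow_dvd_pow p (by omega)).trans h2)
        have h3 : Nat.card (C ⊔ R : Subgroup (ProjectiveSpecialLinearGroup (Fin 2) F)) ≤ p := by
          rw [hk]
          calc p ^ k ≤ p ^ 1 := Nat.pow_le_pow_right hp.pos (by omega)
            _ = p := pow_one p
        have e1 := Subgroup.eq_of_le_of_card_ge (le_sup_left : C ≤ C ⊔ R) (by rw [hCc]; exact h3)
        have e2 := Subgroup.eq_of_le_of_card_ge (le_sup_right : R ≤ C ⊔ R) (by rw [hRc]; exact h3)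
        rw [e1, ← e2]
      rw [key A hA hAc, key B hB hBc]
  refine ⟨p, 1, y, hp, by omega, le_rfl, by rw [hy, pow_one], hsq, hsu, ?_, ?_⟩
  · exact innAt (F := F) (p := p) (f := 1) le_rfl (by rw [hF, pow_one]) (by rw [pow_one]; omega) hp (by omega)
      (by omega)
  · have e1 : y ^ p ^ (1 - 1) = y := by simp
    rw [e1]
    exact Wit.of_one hp hy hsu hK

/-- `q = p^f`, `f ≥ 2`, `q ≠ 8`: a primitive prime divisor of `p^(2f) - 1` -/
theorem hasGood_prim {p f : ℕ} [Fact p.Prime] (hF : Fintype.card F = p ^ f) (hf : 2 ≤ f)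
    (h8 : ¬ (p = 2 ∧ f = 3)) [IsSimpleGroup (ProjectiveSpecialLinearGroup (Fin 2) F)]
    (hK : ¬ IsMulCommutative (ProjectiveSpecialLinearGroup (Fin 2) F)) :
    HasGood (ProjectiveSpecialLinearGroup (Fin 2) F) := by
  have hp : p.Prime := Fact.out
  have hcp : CharP F p := by
    obtain ⟨r, hchar⟩ := CharP.exists F
    have hr : r.Prime := (CharP.char_is_prime_or_zero F r).resolve_right (CharP.char_ne_zero_of_finite F r)
    obtain ⟨n, -, hn⟩ := FiniteField.card F r
    rw [hF] at hn
    have h1 : r ∣ p ^ f := by rw [hn]; exact dvd_pow_self r n.ne_zero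
    rwa [← (Nat.prime_dvd_prime_iff_eq hr hp).1 (hr.dvd_of_dvd_pow h1)]
  obtain ⟨r, hr, hdiv, hmod, hrp⟩ := Cfsg.Agent.Lib.Zsigmondy.exists_primitive (a := p) (n := 2 * f) hp.two_le
    (by omega) (fun h => absurd h (by omega)) (fun h => h8 ⟨h.1, by omega⟩)
  have hrf : Fact r.Prime := ⟨hr⟩
  have hr2f : 2 * f + 1 ≤ r := by
    have h1 := Nat.le_of_dvd (by have := hr.two_le; omega) hmod
    omega
  have hr5 : 5 ≤ r := by omega
  have h4 : 4 ≤ p ^ f := by
    calc 4 = 2 ^ 2 := by norm_num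
      _ ≤ p ^ 2 := Nat.pow_le_pow_left hp.two_le 2
      _ ≤ p ^ f := Nat.pow_le_pow_right hp.pos hf
  have hq1 : ¬ r ∣ Fintype.card F - 1 := by
    rw [hF, hdiv]
    intro h
    exact absurd (Nat.le_of_dvd (by omega) h) (by omega)
  have hrq : ¬ r ∣ Fintype.card F := by
    rw [hF]
    intro h
    exact hrp (hr.dvd_of_dvd_pow h)
  have h1 : Fintype.card F ^ 2 - 1 = (Fintype.card F + 1) * (Fintype.card F - 1) := by
    have := Nat.sq_sub_sq (Fintype.card F) 1
    rwa [one_pow] at this
  have hr1 : r ∣ Fintype.card F + 1 := by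
    have h2 : r ∣ p ^ (2 * f) - 1 := (hdiv _).2 dvd_rfl
    have h3 : p ^ (2 * f) = Fintype.card F ^ 2 := by rw [hF]; ring
    rw [h3, h1] at h2
    exact (hr.dvd_mul.1 h2).resolve_right hq1
  -- the Sylow subgroup
  obtain ⟨a, m, hm, hqm⟩ := Nat.exists_eq_pow_mul_and_not_dvd (n := Fintype.card F + 1) (by omega) r hr.ne_one
  have ha : 1 ≤ a := by
    by_contra h0
    have : a = 0 := by omega
    rw [this, pow_zero, one_mul] at hqm
    exact hm (hqm ▸ hr1)
  have hcard : Nat.card (SpecialLinearGroup (Fin 2) F) = r ^ a * (m * (Fintype.card F * (Fintype.card F - 1))) := by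
    rw [ClassicalGeometry.PSL2Basic.card_SL2, h1, hqm]
    ring
  have hnd : ¬ r ∣ m * (Fintype.card F * (Fintype.card F - 1)) := by
    rw [hr.dvd_mul, hr.dvd_mul]
    rintro (h | h | h)
    · exact hm h
    · exact hrq h
    · exact hq1 h
  have hcyc : ∀ P : Sylow r (SpecialLinearGroup (Fin 2) F), IsCyclic P := fun P => S0262.result p r (by omega)
    (fun h => hrp (h ▸ dvd_rfl)) P
  obtain ⟨P⟩ : Nonempty (Sylow r (SpecialLinearGroup (Fin 2) F)) := inferInstance
  have hPc : Nat.card P = r ^ a := by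
    rw [P.card_eq_multiplicity, hcard, Nat.factorization_mul (pow_ne_zero _ hr.ne_zero) (by
      intro h0
      rw [h0] at hnd
      exact hnd (dvd_zero r)), Finsupp.add_apply, Nat.factorization_eq_zero_of_not_dvd hnd, hr.factorization_pow,
      Finsupp.single_eq_same, add_zero]
  obtain ⟨g, hg⟩ := (hcyc P).exists_generator
  have hgo : orderOf (g : SpecialLinearGroup (Fin 2) F) = r ^ a := by
    rw [orderOf_coe, orderOf_eq_card_of_forall_mem_zpowers hg, hPc]
  have hfin : Module.finrank F (Fin 2 → F) = 2 := by rw [Module.finrank_fintype_fun_eq_card, Fintype.card_fin]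
  -- solvably unique elements
  have hsu : ∀ (x : SpecialLinearGroup (Fin 2) F) (b : ℕ), 1 ≤ b → orderOf x = r ^ b →
      SUel r (QuotientGroup.mk' (center (SpecialLinearGroup (Fin 2) F)) x) := by
    intro x b hb hx
    have h6 : SUel r x := by
      refine SUel.of_irreducible (SpecialLinearGroup.toLin' (n := Fin 2) (R := F)) SpecialLinearGroup.toLin'_injective
        hr (by omega) hb hx hcyc (Or.inl ?_) (irreducible hr hb (fun h => hrp (h ▸ dvd_rfl)) hq1 hx)
      rw [hfin]
      obtain ⟨c, rfl⟩ : ∃ c, b = c + 1 := ⟨b - 1, by omega⟩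
      rw [Nat.add_sub_cancel, pow_succ]
      have h7 : 1 ≤ r ^ c := Nat.one_le_pow _ _ hr.pos
      nlinarith
    refine SUel.map (QuotientGroup.mk' (center (SpecialLinearGroup (Fin 2) F))) (QuotientGroup.mk'_surjective _) ?_
      hr ?_ h6
    · rw [QuotientGroup.ker_mk']
      exact Group.isSolvable_of_comm fun a b => Subtype.ext (mem_center_iff.1 b.2 a)
    · rw [QuotientGroup.ker_mk']
      exact not_dvd_center hr (by omega)
  have hr2 : r ≠ 2 := by omega
  refine ⟨r, a, QuotientGroup.mk' _ (g : SpecialLinearGroup (Fin 2) F), hr, hr2, ha, orderOf_mk hr hr2 hgo, ?_,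
    hsu _ a ha hgo, innAt (by omega) hF h4 hr hr2 (by omega), ?_⟩
  · intro h
    have h2 := h.trans card_psl_dvd
    rw [← ClassicalGeometry.PSL2Basic.card_SL2, hcard, pow_succ] at h2
    exact hnd (Nat.dvd_of_mul_dvd_mul_left (pow_pos hr.pos a) h2)
  · have ho : orderOf ((g : SpecialLinearGroup (Fin 2) F) ^ r ^ (a - 1)) = r ^ 1 := by
      rw [pow_one, ← Nat.card_zpowers]
      exact card_socle hgo ha
    rw [← map_pow]
    have ho2 := orderOf_mk hr hr2 ho
    rw [pow_one] at ho2
    exact Wit.of_one hr ho2 (hsu _ 1 le_rfl ho) hK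

end Cfsg.Agent.H577.GoodPSLTwo
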