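import Mathlib
import Cfsg.Agent.H585.GoodW
import Cfsg.Agent.H577.GoodPSLTwo
import Cfsg.Agent.H23.FreeAct
import Cfsg.Agent.OddOrderLocal.FitCores

/-!
# Good elements of `PSL_2(q)` (helper577, for S4384): the group `PSL_2(8)` and the conclusion

* `hasGoodW_504` : a simple group of order 504 with TI Sylow 2-subgroups and an outer automorphism group of order 3;
* `good_psl_two`.
-/

set_option autoImplicit false

namespace Cfsg.Agent.H577.GoodPSLTwo

open Subgroup Matrix Cfsg.Agent.H465.SU Cfsg.Agent.H465.LTwo Cfsg.Agent.H585.Good Cfsg.Agent.H585.FacOne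
open Cfsg.Agent.H585.GW

/-- the permutation argument -/
theorem false_of_solvable {A Ω : Type*} [Group A] [Finite A] [MulAction A Ω] {L : Subgroup A} [L.Normal]
    (hL : Nat.card L = 504)
    (ha : ∀ T : Subgroup A, T ≤ L → IsPGroup 2 T → T ≠ ⊥ → ∃ R : Ω, ∀ ω : Ω, (∀ t ∈ T, t • ω = ω) ↔ ω = R)
    {P Q : Ω} {S : Subgroup A} (hSL : S ≤ L) (hS : Nat.card S = 7)
    (hb : ∀ x ∈ L, x • P = P → x • Q = Q → x ∈ S)
    (hfix : ∀ ω : Ω, (∀ s ∈ S, s • ω = ω) ↔ ω = P ∨ ω = Q) {β : A} (hP : β • P ≠ P) (hQ : β • Q ≠ Q)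
    (hPQ : β • P ≠ Q) {M : Subgroup A} (hM : Group.IsSolvable M) (hSM : S ≤ M) (hβM : β ∈ M) : False := by
  have h7 : Nat.Prime 7 := by norm_num
  have : Fact (Nat.Prime 7) := ⟨h7⟩
  -- elements normalising a subgroup move its fixed points
  have hmove : ∀ (T : Subgroup A) (m : A), m ∈ normalizer (T : Set A) → ∀ ω : Ω, (∀ t ∈ T, t • ω = ω) →
      ∀ t ∈ T, t • (m • ω) = m • ω := by
    intro T m hm ω hω t ht
    have h1 : m⁻¹ * t * m ∈ T := by
      rw [mem_normalizer_iff] at hm
      rw [hm]
      have : m * (m⁻¹ * t * m) * m⁻¹ = t := by group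
      rw [this]
      exact ht
    have h2 := hω _ h1
    rw [mul_smul, mul_smul, inv_smul_eq_iff] at h2
    exact h2
  have hX : Group.IsSolvable (M ⊓ L : Subgroup A) := solvable_mono inf_le_left hM
  have hS1 : S ≠ ⊥ := by
    intro h
    rw [h, card_bot] at hS
    omega
  have hX1 : M ⊓ L ≠ ⊥ := fun h => hS1 (le_bot_iff.1 (h ▸ le_inf hSM hSL))
  obtain ⟨q, hq, V, hVX, hV1, hVq, hVn⟩ := Cfsg.Agent.OddOrderLocal.FitCores.exists_pgroup_le_of_solvable hX hX1
  have hqf : Fact q.Prime := ⟨hq⟩
  have hMn : M ≤ normalizer ((M ⊓ L : Subgroup A) : Set A) := by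
    intro m hm
    rw [mem_normalizer_iff]
    intro x
    constructor
    · rintro ⟨h1, h2⟩
      exact ⟨M.mul_mem (M.mul_mem hm h1) (M.inv_mem hm), ‹L.Normal›.conj_mem x h2 m⟩
    · rintro ⟨h1, h2⟩
      have h3 : m⁻¹ * (m * x * m⁻¹) * m⁻¹⁻¹ = x := by group
      refine ⟨?_, ?_⟩
      · have h4 := M.mul_mem (M.mul_mem (M.inv_mem hm) h1) (M.inv_mem (M.inv_mem hm))
        rwa [h3] at h4
      · have h4 := ‹L.Normal›.conj_mem _ h2 m⁻¹
        rwa [h3] at h4
  have hMV : M ≤ normalizer (V : Set A) := hMn.trans hVn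
  have hVL : V ≤ L := hVX.trans inf_le_right
  obtain ⟨k, hk⟩ := IsPGroup.iff_card.1 hVq
  have hk0 : k ≠ 0 := by
    rintro rfl
    rw [pow_zero] at hk
    exact hV1 (Subgroup.card_eq_one.1 hk)
  have hVc : q ^ k ∣ 504 := by
    rw [← hk, ← hL]
    exact Subgroup.card_dvd_of_le hVL
  have hqc : q ∣ 504 := (dvd_pow_self q hk0).trans hVc
  have hq237 : q = 2 ∨ q = 3 ∨ q = 7 := by
    have h1 : q ∣ 2 ^ 3 * 3 ^ 2 * 7 := by
      have : 2 ^ 3 * 3 ^ 2 * 7 = 504 := by norm_num
      rw [this]; exact hqc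
    rcases (hq.dvd_mul).1 h1 with h2 | h2
    · rcases (hq.dvd_mul).1 h2 with h3 | h3
      · left; exact (Nat.prime_dvd_prime_iff_eq hq Nat.prime_two).1 (hq.dvd_of_dvd_pow h3)
      · right; left; exact (Nat.prime_dvd_prime_iff_eq hq Nat.prime_three).1 (hq.dvd_of_dvd_pow h3)
    · right; right; exact (Nat.prime_dvd_prime_iff_eq hq h7).1 h2
  rcases hq237 with rfl | rfl | rfl
  · -- a 2-group
    obtain ⟨R, hR⟩ := ha V hVL hVq hV1
    have h1 : ∀ m ∈ M, m • R = R := fun m hm => (hR _).1 (hmove V m (hMV hm) R ((hR R).2 rfl))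
    rcases (hfix R).1 (fun s hs => h1 s (hSM hs)) with rfl | rfl
    · exact hP (h1 β hβM)
    · exact hQ (h1 β hβM)
  · -- a 3-group
    -- the fixed points of `S` on `V`
    have hVk : k ≤ 2 := by
      by_contra hcon
      have h1 : 3 ^ 3 ∣ 504 := (pow_dvd_pow 3 (by omega)).trans hVc
      norm_num at h1
    have hSV : ∀ s ∈ S, s ∈ normalizer (V : Set A) := fun s hs => hMV (hSM hs)
    let act : MulAction S V :=
      { smul := fun s v => ⟨(s : A) * v * (s : A)⁻¹, by
          have h1 := hSV s s.2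
          rw [mem_normalizer_iff] at h1
          exact (h1 v).1 v.2⟩
        one_smul := fun v => Subtype.ext (by
          show ((1 : S) : A) * v * ((1 : S) : A)⁻¹ = v
          simp)
        mul_smul := fun s t v => Subtype.ext (by
          show ((s * t : S) : A) * v * ((s * t : S) : A)⁻¹ = s * (t * v * (t : A)⁻¹) * (s : A)⁻¹
          push_cast
          group) }
    have hact : ∀ (s : S) (v : V), ((s • v : V) : A) = (s : A) * v * (s : A)⁻¹ := fun s v => rfl
    have hSp : IsPGroup 7 S := IsPGroup.of_card (n := 1) (by rw [hS, pow_one])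
    have h1 := hSp.card_modEq_card_fixedPoints (α := V)
    have h2 : Nat.card (MulAction.fixedPoints S V) ≠ 1 := by
      intro h
      rw [h, hk] at h1
      have h3 : k = 1 ∨ k = 2 := by omega
      rcases h3 with rfl | rfl
      · exact absurd h1 (by decide)
      · exact absurd h1 (by decide)
    have h3 : ∃ v : V, v ∈ MulAction.fixedPoints S V ∧ v ≠ 1 := by
      by_contra hcon
      push Not at hcon
      apply h2
      rw [Nat.card_eq_one_iff_unique]
      refine ⟨⟨fun a b => Subtype.ext ?_⟩, ⟨⟨1, fun s => Subtype.ext ?_⟩⟩⟩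
      · rw [hcon a a.2, hcon b b.2]
      · rw [hact]; simp
    obtain ⟨v, hv, hv1⟩ := h3
    have hvS : ∀ s ∈ S, s * (v : A) = v * s := by
      intro s hs
      have h4 := congrArg Subtype.val (hv ⟨s, hs⟩)
      rw [hact] at h4
      have h5 : s * (v : A) * s⁻¹ = v := h4
      rw [mul_inv_eq_iff_eq_mul] at h5
      exact h5
    have hvn : (v : A) ∈ normalizer (S : Set A) := by
      rw [mem_normalizer_iff]
      intro x
      constructor
      · intro hx
        rw [← hvS x hx, mul_inv_cancel_right]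
        exact hx
      · intro hx
        have h4 := hvS _ hx
        have h5 : v * x * (v : A)⁻¹ = x := by
          have h6 : (v : A) * x * (v : A)⁻¹ * v = v * (v * x * (v : A)⁻¹) := h4
          rw [inv_mul_cancel_right] at h6
          exact (mul_left_cancel h6).symm
        rw [h5] at hx
        exact hx
    -- `v` permutes `P`, `Q`
    have hfP := hmove S v hvn P ((hfix P).2 (Or.inl rfl))
    have hfQ := hmove S v hvn Q ((hfix Q).2 (Or.inr rfl))
    have h5 : (v : A) ^ 2 • P = P ∧ (v : A) ^ 2 • Q = Q := by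
      rcases (hfix _).1 hfP with h | h
      · rcases (hfix _).1 hfQ with h' | h'
        · have h6 : P = Q := smul_left_cancel (v : A) (h.trans h'.symm)
          subst h6
          rw [pow_two, mul_smul, h, h]
          exact ⟨rfl, rfl⟩
        · rw [pow_two, mul_smul, mul_smul, h, h, h', h']
          exact ⟨rfl, rfl⟩
      · rcases (hfix _).1 hfQ with h' | h'
        · rw [pow_two, mul_smul, mul_smul, h, h', h]
          exact ⟨rfl, rfl⟩
        · have h6 : P = Q := smul_left_cancel (v : A) (h.trans h'.symm)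
          subst h6
          rw [pow_two, mul_smul, h, h]
          exact ⟨rfl, rfl⟩
    have h6 : (v : A) ^ 2 ∈ S := hb _ (L.pow_mem (hVL v.2) 2) h5.1 h5.2
    have h7' : ((v : A) ^ 2) ^ 7 = 1 := by
      have h8 := pow_card_eq_one' (x := (⟨_, h6⟩ : S))
      rw [hS] at h8
      exact congrArg Subtype.val h8
    have h8 : (v : A) ^ (3 ^ k) = 1 := by
      have h9 := pow_card_eq_one' (x := v)
      rw [hk] at h9
      exact congrArg Subtype.val h9
    apply hv1
    apply Subtype.ext
    show (v : A) = 1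
    rw [← orderOf_eq_one_iff]
    rw [← pow_mul] at h7'
    have h10 : orderOf (v : A) ∣ 2 * 7 := orderOf_dvd_of_pow_eq_one h7'
    have h11 : orderOf (v : A) ∣ 3 ^ k := orderOf_dvd_of_pow_eq_one h8
    have h12 : Nat.Coprime (2 * 7) (3 ^ k) := Nat.Coprime.pow_right k (by norm_num)
    exact Nat.dvd_one.1 (h12 ▸ Nat.dvd_gcd h10 h11)
  · -- a 7-group
    have hk1 : k = 1 := by
      have : k < 2 := by
        by_contra hcon
        have h1 : 7 ^ 2 ∣ 504 := (pow_dvd_pow 7 (by omega)).trans hVc
        norm_num at h1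
      omega
    rw [hk1, pow_one] at hk
    -- `V = S`
    have hSp : IsPGroup 7 S := IsPGroup.of_card (n := 1) (by rw [hS, pow_one])
    have hsup : IsPGroup 7 (S ⊔ V : Subgroup A) :=
      IsPGroup.to_sup_of_normal_right' hSp hVq (hSM.trans hMV)
    obtain ⟨j, hj⟩ := IsPGroup.iff_card.1 hsup
    have h2 : 7 ^ j ∣ 504 := by
      rw [← hj, ← hL]
      exact Subgroup.card_dvd_of_le (sup_le hSL hVL)
    have hj2 : j < 2 := by
      by_contra hcon
      have h1 : 7 ^ 2 ∣ 504 := (pow_dvd_pow 7 (by omega)).trans h2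
      norm_num at h1
    have h3 : Nat.card (S ⊔ V : Subgroup A) ≤ 7 := by
      rw [hj]
      calc 7 ^ j ≤ 7 ^ 1 := Nat.pow_le_pow_right (by norm_num) (by omega)
        _ = 7 := pow_one 7
    have e1 := Subgroup.eq_of_le_of_card_ge (le_sup_left : S ≤ S ⊔ V) (by rw [hS]; exact h3)
    have e2 := Subgroup.eq_of_le_of_card_ge (le_sup_right : V ≤ S ⊔ V) (by rw [hk]; exact h3)
    have e3 : V = S := by rw [e2, ← e1]
    rw [e3] at hMV
    have h4 := hmove S β (hMV hβM) P ((hfix P).2 (Or.inl rfl))
    rcases (hfix _).1 h4 with h5 | h5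
    · exact hP h5
    · exact hPQ h5

/-- a 2-element normalising a Sylow 2-subgroup lies in it -/
theorem mem_of_smul_eq {K : Type*} [Group K] [Finite K] {P : Sylow 2 K} {t : K} {j : ℕ} (ht : t ^ 2 ^ j = 1)
    (h : t • P = P) : t ∈ (P : Subgroup K) := by
  have hn : zpowers t ≤ normalizer ((P : Subgroup K) : Set K) := by
    rw [zpowers_le]
    exact Sylow.smul_eq_iff_mem_normalizer.1 h
  have hp : IsPGroup 2 (zpowers t) := by
    rw [IsPGroup.iff_card]
    obtain ⟨i, -, hi⟩ := (Nat.dvd_prime_pow Nat.prime_two).1 (orderOf_dvd_of_pow_eq_one ht)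
    exact ⟨i, by rw [Nat.card_zpowers, hi]⟩
  have hsup : IsPGroup 2 (zpowers t ⊔ P : Subgroup K) := IsPGroup.to_sup_of_normal_right' hp P.isPGroup' hn
  have h1 := P.is_maximal' hsup le_sup_right
  have h2 : zpowers t ≤ P := h1 ▸ le_sup_left
  exact h2 (mem_zpowers t)

/-- a simple group of order 504 -/
theorem hasGoodW_504 {K : Type*} [Group K] [Finite K] [IsSimpleGroup K] (hK : ¬ IsMulCommutative K)
    (hc : Nat.card K = 504)
    (hTI : ∀ (P Q : Sylow 2 K) (x : K), x ≠ 1 → x ∈ (P : Subgroup K) → x ∈ (Q : Subgroup K) → P = Q)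
    (hout : Nat.card (Cfsg.Out K) = 3) : HasGoodW K := by
  have h7 : Nat.Prime 7 := by norm_num
  have hf7 : Fact (Nat.Prime 7) := ⟨h7⟩
  have hf2 : Fact (Nat.Prime 2) := ⟨Nat.prime_two⟩
  have hcen := center_eq_bot hK
  have hinj := conj_injective hcen
  -- the Sylow 2-subgroups
  have hP8 : ∀ P : Sylow 2 K, Nat.card (P : Subgroup K) = 8 := by
    intro P
    rw [P.card_eq_multiplicity, hc]
    have : (504 : ℕ) = 2 ^ 3 * 63 := by norm_num
    rw [this, Nat.factorization_mul (by norm_num) (by norm_num), Finsupp.add_apply, Nat.prime_two.factorization_pow,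
      Finsupp.single_eq_same, Nat.factorization_eq_zero_of_not_dvd (by norm_num)]
    norm_num
  -- a Sylow 2-subgroup acts freely on the other ones
  have hfree : ∀ (P R : Sylow 2 K) (t : K), t ∈ (P : Subgroup K) → t ≠ 1 → t • R = R → R = P := by
    intro P R t ht ht1 h
    have h1 : t ^ 2 ^ 3 = 1 := by
      have h2 := pow_card_eq_one' (x := (⟨t, ht⟩ : (P : Subgroup K)))
      rw [hP8] at h2
      exact congrArg Subtype.val h2
    exact hTI _ _ t ht1 (mem_of_smul_eq h1 h) ht
  have hself : ∀ (P : Sylow 2 K) (t : K), t ∈ (P : Subgroup K) → t • P = P := fun P t ht =>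
    Sylow.smul_eq_iff_mem_normalizer.2 (le_normalizer ht)
  have hker : (MulAction.toPermHom K (Sylow 2 K)).ker ≠ ⊤ → ∀ t : K, (∀ R : Sylow 2 K, t • R = R) → t = 1 := by
    intro h t ht
    have h1 : t ∈ (MulAction.toPermHom K (Sylow 2 K)).ker := by
      rw [MonoidHom.mem_ker]
      ext R
      rw [MulAction.toPermHom_apply, MulAction.toPerm_apply, ht R]
      rfl
    rw [((inferInstance : (MulAction.toPermHom K (Sylow 2 K)).ker.Normal).eq_bot_or_eq_top).resolve_right h,
      mem_bot] at h1
    exact h1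
  have hkt : (MulAction.toPermHom K (Sylow 2 K)).ker ≠ ⊤ := by
    intro h
    obtain ⟨P⟩ : Nonempty (Sylow 2 K) := inferInstance
    have h1 : (P : Subgroup K).Normal := by
      rw [← normalizer_eq_top_iff, eq_top_iff]
      intro g _
      have h2 : g ∈ (MulAction.toPermHom K (Sylow 2 K)).ker := by rw [h]; trivial
      rw [MonoidHom.mem_ker] at h2
      have h3 := DFunLike.congr_fun h2 P
      exact Sylow.smul_eq_iff_mem_normalizer.1 h3
    rcases h1.eq_bot_or_eq_top with h2 | h2
    · have h3 := hP8 P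
      rw [h2, card_bot] at h3
      omega
    · have h3 := hP8 P
      rw [h2, card_top, hc] at h3
      omega
  have hfaith := hker hkt
  -- there are nine of them
  have hmod : ∀ P : Sylow 2 K, 8 ∣ {R : Sylow 2 K | R ≠ P}.ncard := by
    intro P
    let C : SubMulAction (P : Subgroup K) (Sylow 2 K) :=
      { carrier := {R | R ≠ P}
        smul_mem' := fun t R hR h => hR (by
          have h1 : (t : K) • R = P := h
          exact smul_left_cancel (t : K) (h1.trans (hself P t t.2).symm)) }
    have h1 : Nat.card (P : Subgroup K) ∣ Nat.card C := by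
      refine Cfsg.Agent.H23.FreeAct.card_dvd_of_free fun t R h => ?_
      by_contra ht
      have h2 : (t : K) • (R : Sylow 2 K) = R := congrArg Subtype.val h
      exact R.2 (hfree P R t t.2 (fun h3 => ht (Subtype.ext h3)) h2)
    rw [hP8] at h1
    have h2 : Nat.card C = {R : Sylow 2 K | R ≠ P}.ncard := by
      rw [← Nat.card_coe_set_eq]; rfl
    rw [← h2]
    exact h1
  have hnP : ∀ P : Sylow 2 K, {R : Sylow 2 K | R ≠ P}.ncard + 1 = Nat.card (Sylow 2 K) := by
    intro P
    have h1 : {R : Sylow 2 K | R ≠ P} = ({P} : Set (Sylow 2 K))ᶜ := rfl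
    have h2 := Set.ncard_add_ncard_compl ({P} : Set (Sylow 2 K))
    rw [Set.ncard_singleton] at h2
    rw [h1]
    omega
  have hn9 : Nat.card (Sylow 2 K) = 9 := by
    obtain ⟨P⟩ : Nonempty (Sylow 2 K) := inferInstance
    have h1 := hmod P
    have h2 := hnP P
    have h3 : Nat.card (Sylow 2 K) ∣ 63 := by
      have h4 := Sylow.card_dvd_index P
      have h5 := (P : Subgroup K).card_mul_index
      rw [hP8, hc] at h5
      have h6 : (P : Subgroup K).index = 63 := by omega
      rwa [h6] at h4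
    have h4 : Nat.card (Sylow 2 K) ≠ 1 := by
      intro h
      apply hkt
      rw [eq_top_iff]
      intro g _
      rw [MonoidHom.mem_ker]
      have := (Nat.card_eq_one_iff_unique.1 h).1
      exact Equiv.ext fun R => Subsingleton.elim _ _
    have h5 : Nat.card (Sylow 2 K) ≤ 63 := Nat.le_of_dvd (by norm_num) h3
    obtain ⟨c, hc'⟩ := h1
    obtain ⟨d, hd⟩ := h3
    rw [hc'] at h2
    rw [← h2] at hd h4 h5 ⊢
    have hc7 : c ≤ 7 := by omega
    interval_cases c <;> omega
  -- a Sylow 2-subgroup is transitive on the other ones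
  have htrans : ∀ P Q R : Sylow 2 K, Q ≠ P → R ≠ P → ∃ t ∈ (P : Subgroup K), t • Q = R := by
    intro P Q R hQP hRP
    have h1 : (MulAction.orbit (P : Subgroup K) Q).ncard = 8 := by
      rw [← Nat.card_coe_set_eq, Nat.card_congr (MulAction.orbitEquivQuotientStabilizer (P : Subgroup K) Q)]
      have h3 : MulAction.stabilizer (P : Subgroup K) Q = ⊥ := by
        rw [eq_bot_iff]
        intro d hd
        rw [mem_bot]
        by_contra hd1
        exact hQP (hfree P Q d d.2 (fun h4 => hd1 (Subtype.ext h4)) hd)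
      rw [h3, Nat.card_congr (QuotientGroup.quotientBot (G := (P : Subgroup K))).toEquiv, hP8]
    have h2 : MulAction.orbit (P : Subgroup K) Q ⊆ {R : Sylow 2 K | R ≠ P} := by
      rintro _ ⟨t, rfl⟩ h
      have h4 : (t : K) • Q = P := h
      exact hQP (smul_left_cancel (t : K) (h4.trans (hself P t t.2).symm))
    have h3 : MulAction.orbit (P : Subgroup K) Q = {R : Sylow 2 K | R ≠ P} := by
      refine Set.eq_of_subset_of_ncard_le h2 ?_
      have := hnP P
      omega
    have h4 : R ∈ MulAction.orbit (P : Subgroup K) Q := by rw [h3]; exact hRP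
    obtain ⟨t, ht⟩ := h4
    exact ⟨t, t.2, ht⟩
  -- the stabiliser of two points
  have hstab : ∀ P Q : Sylow 2 K, P ≠ Q →
      Nat.card (MulAction.stabilizer K P ⊓ MulAction.stabilizer K Q : Subgroup K) = 7 := by
    intro P Q hPQ
    have h1 : Nat.card (MulAction.stabilizer K P) = 56 := by
      have h2 := (MulAction.stabilizer K P).index_mul_card
      rw [MulAction.index_stabilizer, MulAction.orbit_eq_univ, Set.ncard_univ, hn9, hc] at h2
      omega
    have h2 : (MulAction.orbit (MulAction.stabilizer K P) Q).ncard = 8 := by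
      have h3 : MulAction.orbit (MulAction.stabilizer K P) Q = {R : Sylow 2 K | R ≠ P} := by
        ext R
        constructor
        · rintro ⟨t, rfl⟩ h
          have h4 : (t : K) • Q = P := h
          have h5 : (t : K) • P = P := t.2
          exact hPQ (smul_left_cancel (t : K) (h4.trans h5.symm)).symm
        · intro hR
          obtain ⟨t, ht, htR⟩ := htrans P Q R hPQ.symm hR
          exact ⟨⟨t, hself P t ht⟩, htR⟩
      have := hnP P
      rw [h3]
      omega
    have h3 := (MulAction.stabilizer (MulAction.stabilizer K P) Q).index_mul_card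
    rw [MulAction.index_stabilizer, h2, h1] at h3
    have h4 : Nat.card (MulAction.stabilizer (MulAction.stabilizer K P) Q) = 7 := by omega
    rw [← h4]
    refine Nat.card_congr ⟨fun x => ⟨⟨x.1, x.2.1⟩, x.2.2⟩, fun x => ⟨x.1.1, x.1.2, x.2⟩, fun _ => rfl, fun _ => rfl⟩
  have hfix : ∀ P Q : Sylow 2 K, P ≠ Q → ∀ R : Sylow 2 K,
      (∀ s ∈ MulAction.stabilizer K P ⊓ MulAction.stabilizer K Q, s • R = R) ↔ R = P ∨ R = Q := by
    intro P Q hPQ R
    set T : Subgroup K := MulAction.stabilizer K P ⊓ MulAction.stabilizer K Q with hT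
    have hTc : Nat.card T = 7 := hstab P Q hPQ
    have hTp : IsPGroup 7 T := IsPGroup.of_card (n := 1) (by rw [hTc, pow_one])
    have h1 := hTp.card_modEq_card_fixedPoints (α := Sylow 2 K)
    rw [hn9] at h1
    have h2 : Nat.card (MulAction.fixedPoints T (Sylow 2 K)) ≤ 9 := by
      rw [← hn9]
      exact Nat.card_le_card_of_injective Subtype.val Subtype.val_injective
    have hmemP : P ∈ MulAction.fixedPoints T (Sylow 2 K) := fun s => s.2.1
    have hmemQ : Q ∈ MulAction.fixedPoints T (Sylow 2 K) := fun s => s.2.2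
    have h3 : Nat.card (MulAction.fixedPoints T (Sylow 2 K)) ≠ 9 := by
      intro h
      have h4 : MulAction.fixedPoints T (Sylow 2 K) = Set.univ := by
        refine Set.eq_of_subset_of_ncard_le (Set.subset_univ _) ?_
        rw [Set.ncard_univ, hn9, ← Nat.card_coe_set_eq, h]
      have h5 : T = ⊥ := by
        rw [eq_bot_iff]
        intro t ht
        rw [mem_bot]
        refine hfaith t fun R => ?_
        have h6 : R ∈ MulAction.fixedPoints T (Sylow 2 K) := by rw [h4]; trivial
        exact h6 ⟨t, ht⟩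
      rw [h5, card_bot] at hTc
      omega
    have h4 : (MulAction.fixedPoints T (Sylow 2 K)).ncard = 2 := by
      rw [← Nat.card_coe_set_eq]
      have h5 : 9 % 7 = Nat.card (MulAction.fixedPoints T (Sylow 2 K)) % 7 := h1
      omega
    have h5 : ({P, Q} : Set (Sylow 2 K)) = MulAction.fixedPoints T (Sylow 2 K) := by
      refine Set.eq_of_subset_of_ncard_le ?_ ?_
      · rintro R (rfl | rfl)
        · exact hmemP
        · exact hmemQ
      · rw [h4, Set.ncard_pair hPQ]
    constructor
    · intro h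
      have h6 : R ∈ MulAction.fixedPoints T (Sylow 2 K) := fun s => h s s.2
      rw [← h5] at h6
      exact h6
    · intro h s hs
      have h6 : R ∈ MulAction.fixedPoints T (Sylow 2 K) := by
        rw [← h5]
        exact h
      exact h6 ⟨s, hs⟩
  -- two points moved by an automorphism
  have hout2 : InnAt K 2 := InnAt.of_out Nat.prime_two (by rw [hout]; norm_num)
  have hpts : ∀ β : MulAut K, (orderOf β).Prime → ∃ P Q : Sylow 2 K, P ≠ Q ∧ β • P ≠ P ∧ β • Q ≠ Q ∧ β • P ≠ Q := by
    intro β hβ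
    have hβ1 : β ≠ 1 := by
      rintro rfl
      rw [orderOf_one] at hβ
      exact Nat.not_prime_one hβ
    by_cases hβ2 : orderOf β = 2
    · obtain ⟨t, rfl⟩ := hout2 β ⟨1, by rw [hβ2, pow_one]⟩
      have ht1 : t ≠ 1 := by
        rintro rfl
        exact hβ1 (map_one _)
      have ht2 : t ^ 2 ^ 1 = 1 := by
        rw [pow_one]
        apply hinj
        rw [map_pow, map_one, ← hβ2, pow_orderOf_eq_one]
      -- at most one fixed point
      have hone : ∀ R R' : Sylow 2 K, t • R = R → t • R' = R' → R = R' := fun R R' h h' =>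
        hTI R R' t ht1 (mem_of_smul_eq ht2 h) (mem_of_smul_eq ht2 h')
      have hmv : ∀ R : Sylow 2 K, (MulAut.conj t : MulAut K) • R = t • R := fun R => rfl
      -- choice of `P`
      obtain ⟨P, hP⟩ : ∃ P : Sylow 2 K, t • P ≠ P := by
        by_contra hcon
        push Not at hcon
        exact ht1 (hfaith t hcon)
      -- choice of `Q`
      obtain ⟨Q, hQ⟩ : ∃ Q : Sylow 2 K, Q ∉ ({P, t • P} : Set (Sylow 2 K)) ∪ {R | t • R = R} := by
        by_contra hcon
        push Not at hcon
        have h1 : (Set.univ : Set (Sylow 2 K)).ncard ≤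
            (({P, t • P} : Set (Sylow 2 K)) ∪ {R | t • R = R}).ncard :=
          Set.ncard_le_ncard (fun Q _ => hcon Q) (Set.toFinite _)
        have h2 := Set.ncard_union_le ({P, t • P} : Set (Sylow 2 K)) {R | t • R = R}
        have h3 : ({P, t • P} : Set (Sylow 2 K)).ncard ≤ 2 := by
          refine (Set.ncard_insert_le _ _).trans ?_
          rw [Set.ncard_singleton]
        have h4 : {R : Sylow 2 K | t • R = R}.ncard ≤ 1 := by
          rw [Set.ncard_le_one (Set.toFinite _)]
          exact fun a ha b hb => hone a b ha hb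
        rw [Set.ncard_univ, hn9] at h1
        omega
      have hQ1 : Q ≠ P := fun h => hQ (Or.inl (by rw [h]; simp))
      have hQ2 : Q ≠ t • P := fun h => hQ (Or.inl (by rw [h]; simp))
      have hQ3 : t • Q ≠ Q := fun h => hQ (Or.inr h)
      exact ⟨P, Q, hQ1.symm, hP, hQ3, hQ2.symm⟩
    · -- `β` has order at least 3
      obtain ⟨P, hP⟩ : ∃ P : Sylow 2 K, β • P ≠ P := by
        by_contra hcon
        push Not at hcon
        apply hβ1
        obtain ⟨P⟩ : Nonempty (Sylow 2 K) := inferInstance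
        refine eq_one_of_normalises (A := (P : Subgroup K)) (fun hn => ?_) fun g => ?_
        · apply hkt
          rw [eq_top_iff]
          intro g _
          rw [MonoidHom.mem_ker]
          refine Equiv.ext fun R => ?_
          obtain ⟨k, rfl⟩ := MulAction.exists_smul_eq K P R
          have h1 : ∀ x : K, x • P = P := fun x => by
            have h2 : x ∈ normalizer ((P : Subgroup K) : Set K) := by
              rw [normalizer_eq_top_iff.2 hn]; trivial
            exact Sylow.smul_eq_iff_mem_normalizer.2 h2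
          show g • k • P = k • P
          rw [h1 k, h1 g]
        · have h1 := congrArg (fun R : Sylow 2 K => (R : Subgroup K)) (hcon (g • P))
          exact h1
      have hpow : β ^ (2 : ℕ) • P ≠ P := by
        intro h
        have hodd : Nat.Coprime 2 (orderOf β) := (Nat.coprime_primes Nat.prime_two hβ).2 (Ne.symm hβ2)
        -- `β` is a power of `β ^ 2`
        obtain ⟨m, hm⟩ := exists_pow_eq_self_of_coprime hodd
        have h2 : ∀ j : ℕ, (β ^ 2) ^ j • P = P := by
          intro j
          induction j with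
          | zero => simp
          | succ j ih => rw [pow_succ, mul_smul, h, ih]
        have h3 := h2 m
        rw [hm] at h3
        exact hP h3
      refine ⟨P, β ^ 2 • P, hpow.symm, hP, ?_, ?_⟩
      · intro h
        rw [← mul_smul, ← pow_succ', pow_succ, mul_smul] at h
        exact hP (smul_left_cancel (β ^ 2) h)
      · intro h
        rw [pow_two, mul_smul] at h
        exact hP (smul_left_cancel β h).symm
  -- the conclusion
  obtain ⟨y, hy⟩ := exists_prime_orderOf_dvd_card' (G := K) 7 (by rw [hc]; norm_num)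
  refine ⟨7, 1, y, GoodW.of_exc hK h7 hy (by rw [hc]; norm_num) (InnAt.of_out h7 (by rw [hout]; norm_num)) ?_⟩
  intro β hβ
  obtain ⟨P, Q, hPQ, hP, hQ, hPQ'⟩ := hpts β hβ
  set T : Subgroup K := MulAction.stabilizer K P ⊓ MulAction.stabilizer K Q with hT
  have hTc : Nat.card T = 7 := hstab P Q hPQ
  -- a conjugate of `y` generates `T`
  obtain ⟨g, hg⟩ : ∃ g : K, g * y * g⁻¹ ∈ T ∧ T ≤ zpowers (g * y * g⁻¹) := by
    have hcardy : Nat.card (zpowers y) = 7 := by rw [Nat.card_zpowers, hy]
    have h49 : ∀ H : Subgroup K, IsPGroup 7 H → Nat.card H ≤ 7 := by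
      intro H hH
      obtain ⟨j, hj⟩ := IsPGroup.iff_card.1 hH
      have h2 : 7 ^ j ∣ 504 := by
        rw [← hj, ← hc]
        exact Subgroup.card_subgroup_dvd_card H
      have hj2 : j < 2 := by
        by_contra hcon
        have h1 : 7 ^ 2 ∣ 504 := (pow_dvd_pow 7 (by omega)).trans h2
        norm_num at h1
      rw [hj]
      calc 7 ^ j ≤ 7 ^ 1 := Nat.pow_le_pow_right (by norm_num) (by omega)
        _ = 7 := pow_one 7
    obtain ⟨S1, hS1⟩ := (IsPGroup.of_card (n := 1) (by rw [hcardy, pow_one]) : IsPGroup 7 (zpowers y)).exists_le_sylow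
    obtain ⟨S2, hS2⟩ := (IsPGroup.of_card (n := 1) (by rw [hTc, pow_one]) : IsPGroup 7 T).exists_le_sylow
    have e1 : zpowers y = S1 := Subgroup.eq_of_le_of_card_ge hS1 (by rw [hcardy]; exact h49 _ S1.isPGroup')
    have e2 : T = S2 := Subgroup.eq_of_le_of_card_ge hS2 (by rw [hTc]; exact h49 _ S2.isPGroup')
    obtain ⟨g, hg⟩ := MulAction.exists_smul_eq K S1 S2
    have h1 : g * y * g⁻¹ ∈ T := by
      rw [e2, ← hg, Sylow.coe_subgroup_smul, Subgroup.mem_pointwise_smul_iff_inv_smul_mem]
      have h3 : (MulAut.conj g)⁻¹ • (g * y * g⁻¹) = y := by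
        rw [← map_inv, MulAut.smul_def, MulAut.conj_apply]
        group
      rw [h3, ← e1]
      exact mem_zpowers y
    refine ⟨g, h1, ?_⟩
    have h2 : zpowers (g * y * g⁻¹) = T := by
      refine Subgroup.eq_of_le_of_card_ge (zpowers_le.2 h1) ?_
      rw [hTc, Nat.card_zpowers]
      have e3 : g * y * g⁻¹ = MulAut.conj g y := rfl
      rw [e3, MulEquiv.orderOf_eq, hy]
    rw [h2]
  refine ⟨g, fun hsol => ?_⟩
  have hconj : ∀ (k : K) (R : Sylow 2 K), (MulAut.conj k : MulAut K) • R = k • R := fun _ _ => rfl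
  refine false_of_solvable (A := MulAut K) (Ω := Sylow 2 K) (L := Cfsg.Inn K) (P := P) (Q := Q)
    (S := T.map (MulAut.conj : K →* MulAut K)) ?_ ?_ ?_ ?_ ?_ ?_ hP hQ hPQ' hsol ?_
    (Subgroup.subset_closure (by simp))
  · rw [← hc]
    exact (Nat.card_congr (MonoidHom.ofInjective hinj).toEquiv).symm
  · intro T' hT'L hT'p hT'1
    have hp2 : IsPGroup 2 (T'.comap (MulAut.conj : K →* MulAut K)) := hT'p.comap_of_injective _ hinj
    obtain ⟨R, hR⟩ := hp2.exists_le_sylow
    refine ⟨R, fun ω => ⟨fun h => ?_, ?_⟩⟩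
    · obtain ⟨x, hx, hx1⟩ := T'.bot_or_exists_ne_one.resolve_left hT'1
      obtain ⟨t, rfl⟩ := hT'L hx
      exact hfree R ω t (hR hx) (fun h2 => hx1 (by rw [h2, map_one])) (h _ hx)
    · rintro rfl t ht
      obtain ⟨k, rfl⟩ := hT'L ht
      exact hself ω k (hR ht)
  · rintro _ ⟨k, -, rfl⟩
    exact ⟨k, rfl⟩
  · rw [Subgroup.card_map_of_injective hinj, hTc]
  · rintro _ ⟨k, rfl⟩ h1 h2
    exact ⟨k, ⟨h1, h2⟩, rfl⟩
  · intro ω
    rw [← hfix P Q hPQ ω]
    constructor
    · intro h s hs
      exact h _ ⟨s, hs, rfl⟩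
    · rintro h _ ⟨s, hs, rfl⟩
      exact h s hs
  · rintro _ ⟨k, hk, rfl⟩
    obtain ⟨i, rfl⟩ := mem_zpowers_iff.1 (hg.2 hk)
    rw [map_zpow]
    exact Subgroup.zpow_mem _ (Subgroup.subset_closure (by simp)) i

/-- **the row `PSL_2(q)` of S4384** -/
theorem good_psl_two {K : Type*} [Group K] [Finite K] [IsSimpleGroup K] (hK : ¬ IsMulCommutative K)
    {F : Type*} [Field F] [Fintype F] (e : K ≃* Matrix.ProjectiveSpecialLinearGroup (Fin 2) F)
    (h4 : 4 ≤ Fintype.card F) : HasGoodW K := by
  obtain ⟨p, hchar⟩ := CharP.exists F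
  have hp : p.Prime := (CharP.char_is_prime_or_zero F p).resolve_right (CharP.char_ne_zero_of_finite F p)
  have : Fact p.Prime := ⟨hp⟩
  obtain ⟨n, -, hn⟩ := FiniteField.card F p
  have hs : IsSimpleGroup (ProjectiveSpecialLinearGroup (Fin 2) F) := e.symm.isSimpleGroup
  have hcK : ¬ IsMulCommutative (ProjectiveSpecialLinearGroup (Fin 2) F) := by
    intro h
    apply hK
    refine ⟨⟨fun a b => ?_⟩⟩
    apply e.injective
    rw [map_mul, map_mul]
    exact h.is_comm.comm _ _
  by_cases h1 : (n : ℕ) = 1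
  · rw [h1, pow_one] at hn
    refine (HasGood.congr (hasGood_prime hn ?_ hcK) e.symm).toW hK
    have h5 : p ≠ 4 := by
      rintro rfl
      norm_num at hp
    omega
  · by_cases h8 : p = 2 ∧ (n : ℕ) = 3
    · obtain ⟨rfl, h3⟩ := h8
      rw [h3] at hn
      have h504 : Nat.card (ProjectiveSpecialLinearGroup (Fin 2) F) = 504 := by
        rw [ClassicalGeometry.PSL2Basic.card_PSL2_even F (by rw [hn]; decide), hn]
        norm_num
      refine HasGoodW.congr (hasGoodW_504 hcK h504
        (fun P Q x hx hP hQ => ClassicalGeometry.PSL2ElemOrder.sylow_eq_of_mem 2 P Q x hx hP hQ) ?_) e.symm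
      rw [card_out (F := F) (p := 2) (f := 3) (by norm_num) hn (by norm_num)]
      norm_num
    · refine (HasGood.congr (hasGood_prim hn ?_ h8 hcK) e.symm).toW hK
      have := n.pos
      omega

end Cfsg.Agent.H577.GoodPSLTwo
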